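import Mathlib
import Cfsg.Agent.Lib.Helper71.SUG2.Defs
import Cfsg.Agent.Lib.Helper13.UTransvComm

/-!
# SUG (S2412), block [II], package [II-EX]: the transvection of an isotropic vector lies in
`SU_n(2)`
-/

set_option autoImplicit false
open scoped Matrix

namespace Cfsg.Agent.Lib.Helper8.SUG2

open Cfsg.Agent.Lib.Helper71.SUG2

universe u

/-- [II-EX] -/
theorem pkgEx : Cfsg.Agent.Lib.Helper71.SUG2.PkgEx.{u} := by
  intro F _ _ hF n v hv
  have h2 : (2 : F) = 0 := f4_two hF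
  have hc : (1 : F) ^ 2 = -1 := by linear_combination h2
  exact ⟨Cfsg.Agent.Lib.Helper13.suMk (Cfsg.unitaryTransvection n 2 v 1)
    (Cfsg.Agent.Lib.Helper13.det_utransv v 1 hv)
    (Cfsg.Agent.Lib.Helper13.isHermIso_utransv hF v 1 hv hc), rfl⟩

end Cfsg.Agent.Lib.Helper8.SUG2
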